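import Cfsg.Agent.Lib.Char.H10Jor

/-! Blichfeldt's theorem on elements whose eigenvalues lie close to one of them. -/

set_option autoImplicit false
set_option linter.unusedSectionVars false

namespace CA.H10B60
open Module CChar.CharRep CA.H10Jor
open scoped InnerProductSpace ComplexConjugate

/-- The six sectors of the circle. -/
theorem exists_sector : ∃ f : ℂ → Fin 6, ∀ z w : ℂ, ‖z‖ = 1 → ‖w‖ = 1 → f z = f w →
    ‖z⁻¹ * w - 1‖ < 1 := by
  have hpi := Real.pi_pos
  have h1 : ∀ z : ℂ, 0 < (z.arg + Real.pi) / (Real.pi / 3) := fun z =>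
    div_pos (by linarith [Complex.neg_pi_lt_arg z]) (by linarith)
  refine ⟨fun z => ⟨⌈(z.arg + Real.pi) / (Real.pi / 3)⌉₊ - 1, ?_⟩, fun z w hz hw h => ?_⟩
  · have : ⌈(z.arg + Real.pi) / (Real.pi / 3)⌉₊ ≤ 6 := Nat.ceil_le.2 (by
      rw [div_le_iff₀ (by linarith)]
      push_cast
      linarith [Complex.arg_le_pi z])
    omega
  have h2 := congrArg Fin.val h
  have h3 := Nat.ceil_pos.2 (h1 z)
  have h4 := Nat.ceil_pos.2 (h1 w)
  have h5 : ⌈(z.arg + Real.pi) / (Real.pi / 3)⌉₊ = ⌈(w.arg + Real.pi) / (Real.pi / 3)⌉₊ := by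
    simp only at h2; omega
  have h6 := Nat.le_ceil ((z.arg + Real.pi) / (Real.pi / 3))
  have h7 := Nat.le_ceil ((w.arg + Real.pi) / (Real.pi / 3))
  have h8 := Nat.ceil_lt_add_one (h1 z).le
  have h9 := Nat.ceil_lt_add_one (h1 w).le
  rw [h5] at h6 h8
  have h10 : |w.arg - z.arg| < Real.pi / 3 := by
    have : |(w.arg + Real.pi) / (Real.pi / 3) - (z.arg + Real.pi) / (Real.pi / 3)| < 1 :=
      abs_lt.2 ⟨by linarith, by linarith⟩
    rw [← sub_div, abs_div, abs_of_pos (show 0 < Real.pi / 3 by linarith),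
      div_lt_one (by linarith)] at this
    simpa using this
  have h11 : z⁻¹ * w = Complex.exp ((w.arg - z.arg : ℝ) * Complex.I) := by
    have e1 := Complex.norm_mul_exp_arg_mul_I z
    have e2 := Complex.norm_mul_exp_arg_mul_I w
    rw [hz] at e1
    rw [hw] at e2
    push_cast at *
    rw [sub_mul, Complex.exp_sub, one_mul] at *
    rw [e1, e2]
    ring
  have h12 : 1 / 2 < Real.cos (w.arg - z.arg) := by
    rw [← Real.cos_pi_div_three, ← Real.cos_abs (w.arg - z.arg)]
    exact Real.cos_lt_cos_of_nonneg_of_le_pi (abs_nonneg _) (by linarith) h10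
  rw [h11]
  generalize w.arg - z.arg = t at *
  refine lt_of_pow_lt_pow_left₀ 2 (by norm_num) ?_
  rw [Complex.sq_norm, Complex.normSq_apply]
  simp only [Complex.sub_re, Complex.exp_ofReal_mul_I_re, Complex.one_re, Complex.sub_im,
    Complex.exp_ofReal_mul_I_im, Complex.one_im, sub_zero]
  have h13 := Real.sin_sq_add_cos_sq t
  nlinarith

section unit
variable {G W : Type*} [Group G] [Finite G] [NormedAddCommGroup W] [InnerProductSpace ℂ W]
  [FiniteDimensional ℂ W]
variable {σ : G →* (W →L[ℂ] W)} (hσ : ∀ g v w, ⟪σ g v, σ g w⟫_ℂ = ⟪v, w⟫_ℂ)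
include hσ

theorem norm_lt_of_eigen {a : G} {c : ℂ}
    (h : ∀ (α : ℂ) (v : W), v ≠ 0 → σ a v = α • v → ‖α - c‖ < 1) :
    ‖σ a - algebraMap ℂ _ c‖ < 1 := by
  have := FiniteDimensional.complete ℂ W
  rcases subsingleton_or_nontrivial (W →L[ℂ] W) with h0 | h0
  · rw [Subsingleton.elim (σ a - algebraMap ℂ _ c) 0]; simp
  have h1 : star (σ a) = σ a⁻¹ := by
    rw [ContinuousLinearMap.star_eq_adjoint, eq_comm, ContinuousLinearMap.eq_adjoint_iff]
    intro x y
    rw [← hσ a]
    congr 1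
    show (σ a * σ a⁻¹) x = x
    rw [← map_mul, mul_inv_cancel, map_one]; rfl
  have : IsStarNormal (σ a - algebraMap ℂ _ c) := ⟨by
    rw [star_sub, h1, ← algebraMap_star_comm]
    exact (((Commute.refl a).inv_left.map σ).sub_right (Algebra.commutes _ _).symm).sub_left
      (Algebra.commutes _ _)⟩
  obtain ⟨z, hz, e⟩ := spectrum.exists_nnnorm_eq_spectralRadius (σ a - algebraMap ℂ _ c)
  rw [IsStarNormal.spectralRadius_eq_nnnorm, ENNReal.coe_inj] at e
  rw [ContinuousLinearMap.spectrum_eq, ← Module.End.hasEigenvalue_iff_mem_spectrum] at hz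
  obtain ⟨v, hv⟩ := hz.exists_hasEigenvector
  have h2 := h (z + c) v hv.2 (by
    have : σ a v - c • v = z • v := by
      simpa [Algebra.algebraMap_eq_smul_one] using hv.apply_eq_smul
    rw [add_smul, ← this, sub_add_cancel])
  rw [add_sub_cancel_right] at h2
  exact (congrArg NNReal.toReal e).ge.trans_lt h2

theorem stab {x : G} {c : ℂ} (hc : ‖c‖ = 1)
    (h : ∀ (α : ℂ) (v : W), v ≠ 0 → σ x v = α • v → ‖α - c‖ < 1) (g : G) {v : W}
    (hv : σ x v = c • v) : σ x (σ (g⁻¹ * x * g) v) = c • σ (g⁻¹ * x * g) v := by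
  classical
  have := FiniteDimensional.complete ℂ W
  haveI := Fintype.ofFinite G
  set A := σ x - algebraMap ℂ _ c with hA
  have hA1 : ‖A‖ < 1 := norm_lt_of_eigen hσ h
  have hAa : ∀ w, A w = σ x w - c • w := fun w => by simp [hA, Algebra.algebraMap_eq_smul_one]
  let K : Submodule ℂ W := LinearMap.ker (A : W →ₗ[ℂ] W)
  have hK : ∀ w, w ∈ K ↔ σ x w = c • w := fun w => by
    rw [← sub_eq_zero, ← hAa]; rfl
  let E : G → ℝ := fun g => ‖Kᗮ.starProjection * σ g * K.starProjection‖
  have hQ : ∀ w, Kᗮ.starProjection w = w - K.starProjection w := fun w => by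
    rw [Submodule.starProjection_orthogonal']; rfl
  have hQ0 : ∀ w, Kᗮ.starProjection w = 0 ↔ w ∈ K := fun w => by
    rw [hQ, sub_eq_zero, eq_comm, Submodule.starProjection_eq_self_iff]
  have hmul : ∀ g g' w, σ (g * g') w = σ g (σ g' w) := fun g g' w => by rw [map_mul]; rfl
  have hE0 : ∀ g, E g = 0 ↔ ∀ w ∈ K, σ g w ∈ K := fun g => by
    rw [norm_eq_zero]
    refine ⟨fun e w hw => (hQ0 _).1 ?_, fun e => ContinuousLinearMap.ext fun w =>
      (hQ0 _).2 (e _ (K.starProjection_apply_mem w))⟩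
    have := congrArg (fun T : W →L[ℂ] W => T w) e
    simpa [Submodule.starProjection_eq_self_iff.2 hw] using this
  have hE1 : ∀ g, E g ≤ 1 := fun g => (norm_mul_le _ _).trans (mul_le_one₀
    ((norm_mul_right hσ _ g).trans Kᗮ.starProjection_norm_le) (norm_nonneg _)
    K.starProjection_norm_le)
  have hE2 : ∀ g, E (g⁻¹ * x * g) ≤ ‖A‖ * E g := fun g => by
    have e : Kᗮ.starProjection * σ (g⁻¹ * x * g) * K.starProjection = Kᗮ.starProjection * σ g⁻¹ *
        (A * (Kᗮ.starProjection * σ g * K.starProjection)) := ContinuousLinearMap.ext fun w => by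
      simp only [ContinuousLinearMap.mul_apply]
      have h1 : A (K.starProjection (σ g (K.starProjection w))) = 0 := K.starProjection_apply_mem _
      rw [hQ (σ g _), map_sub, h1, sub_zero, hAa, map_sub, map_smul, ← hmul g⁻¹ g, inv_mul_cancel,
        map_one, map_sub, map_smul, ContinuousLinearMap.one_apply,
        (hQ0 _).2 (K.starProjection_apply_mem w), smul_zero, sub_zero, hmul, hmul]
    simp only [E]
    rw [e]
    refine (norm_mul_le _ _).trans ((mul_le_of_le_one_left (norm_nonneg _)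
      ((norm_mul_right hσ _ _).trans Kᗮ.starProjection_norm_le)).trans (norm_mul_le _ _))
  have hE3 : ∀ g, E (g⁻¹ * x * g) = 0 → E g ≠ 0 → 1 ≤ E g := fun g h1 h2 => by
    rw [Ne, hE0] at h2
    push Not at h2
    obtain ⟨u, hu, h2⟩ := h2
    have h3 : σ (g⁻¹ * x * g) u - c • u ∈ K := K.sub_mem ((hE0 _).1 h1 u hu) (K.smul_mem c hu)
    set w := σ (g⁻¹ * x * g) u - c • u with hw
    have h4 : σ g w = A (σ g u) := by
      rw [hw, map_sub, map_smul, ← hmul, hAa, ← hmul, ← mul_assoc, mul_inv_cancel_left]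
    have h5 : σ g w ∈ Kᗮ := by
      rw [h4, hAa, Submodule.mem_orthogonal]
      intro y hy
      have e := hσ x y (σ g u)
      rw [(hK y).1 hy, inner_smul_left] at e
      rw [inner_sub_right, inner_smul_right, ← e, ← mul_assoc, Complex.mul_conj,
        Complex.normSq_eq_norm_sq, hc]
      simp
    have h6 : w ≠ 0 := fun e => h2 (by
      rw [e, map_zero] at h4
      exact h4.symm)
    have h7 := (Kᗮ.starProjection * σ g * K.starProjection).le_opNorm w
    simp only [ContinuousLinearMap.mul_apply] at h7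
    rw [Submodule.starProjection_eq_self_iff.2 h3, Submodule.starProjection_eq_self_iff.2 h5,
      norm_apply hσ] at h7
    exact le_of_mul_le_mul_right (by rwa [one_mul]) (norm_pos_iff.2 h6)
  have hE4 : ∀ g, E g ≠ 0 → 1 ≤ E g := fun g hg => by
    obtain ⟨g₀, h1, h2⟩ := (Finset.univ.filter fun g => E g ≠ 0).exists_min_image E ⟨g, by simpa⟩
    have h3 : E g₀ ≠ 0 := by simpa using h1
    refine (hE3 g₀ ?_ h3).trans (h2 g (by simpa))
    by_contra h4
    have h5 := (h2 _ (by simpa using h4)).trans (hE2 g₀)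
    have h6 : 0 < E g₀ := lt_of_le_of_ne (norm_nonneg _) h3.symm
    nlinarith
  refine (hK _).1 ((hE0 _).1 ?_ v ((hK v).2 hv))
  by_contra h1
  have h2 := (hE4 _ h1).trans (hE2 g)
  have h3 := hE1 g
  nlinarith [norm_nonneg A]

end unit

/-- Blichfeldt. -/
theorem scalar {G : Type*} [Group G] [Finite G] {n : ℕ} (ρ : Representation ℂ G (Fin n → ℂ))
    [hρ : ρ.IsIrreducible] {x : G} (hx : Subgroup.normalClosure ({x} : Set G) = ⊤) {c : ℂ}
    (hc : ‖c‖ = 1) (h : ∀ (α : ℂ) v, v ≠ 0 → ρ x v = α • v → ‖α - c‖ < 1) {v : Fin n → ℂ}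
    (h0 : v ≠ 0) (hv : ρ x v = c • v) (w : Fin n → ℂ) : ρ x w = c • w := by
  letI := Fintype.ofFinite G
  obtain ⟨W, e, he⟩ := exists_unitary ρ
  let σ : G →* (W →L[ℂ] W) :=
    (Module.End.toContinuousLinearMap W).toAlgHom.toMonoidHom.comp (transport ρ e)
  have h1 : ∀ g w, σ g w = e (ρ g (e.symm w)) := fun g w => rfl
  have h2 : ∀ g v, ρ x v = c • v → ρ x (ρ (g⁻¹ * x * g) v) = c • ρ (g⁻¹ * x * g) v := by
    intro g v hv
    have := stab (W := W) (σ := σ) (fun g v w => by
      rw [h1, h1, he, e.apply_symm_apply, e.apply_symm_apply]) hc (x := x)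
      (fun α u hu e' => h α (e.symm u) (by simpa using hu) (e.injective (by
        rw [← h1, e', map_smul, e.apply_symm_apply]))) g (v := e v)
      (by rw [h1, e.symm_apply_apply, hv, map_smul])
    rw [h1, h1, e.symm_apply_apply, e.symm_apply_apply, ← map_smul] at this
    exact e.injective this
  let S : Submonoid G :=
    { carrier := {g | ∀ v, ρ x v = c • v → ρ x (ρ g v) = c • ρ g v}
      one_mem' := fun v hv => by simpa using hv
      mul_mem' := fun {a b} ha hb v hv => by
        rw [map_mul]; exact ha _ (hb v hv) }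
  let T : Subgroup G := { S with
    inv_mem' := fun {a} ha => by
      rw [← pow_card_eq_one' (x := a) |> fun e => eq_inv_of_mul_eq_one_left
        (show a ^ (Nat.card G - 1) * a = 1 by rw [← pow_succ, Nat.sub_add_cancel Nat.card_pos, e])]
      exact S.pow_mem ha _ }
  have h3 : ∀ g, g ∈ T := fun g => by
    have : Subgroup.normalClosure ({x} : Set G) ≤ T := by
      refine (Subgroup.closure_le T).2 fun y hy => ?_
      obtain ⟨z, hz, hy'⟩ := Group.mem_conjugatesOfSet_iff.1 hy
      obtain ⟨g, rfl⟩ := isConj_iff.1 hy'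
      rw [Set.mem_singleton_iff.1 hz]
      intro v hv
      have := h2 g⁻¹ v hv
      rwa [inv_inv] at this
    exact this (hx ▸ Subgroup.mem_top g)
  let U : Subrepresentation ρ :=
    ⟨LinearMap.ker (ρ x - c • 1), fun g v hv => by
      simp only [LinearMap.mem_ker, LinearMap.sub_apply, LinearMap.smul_apply,
        Module.End.one_apply, sub_eq_zero] at hv ⊢
      exact h3 g v hv⟩
  have h4 : ∀ w, w ∈ U.toSubmodule ↔ ρ x w = c • w := fun w => by
    simp [U, sub_eq_zero]
  rcases eq_bot_or_eq_top U with h5 | h5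
  · have := (h4 v).2 hv
    rw [h5] at this
    exact absurd this h0
  · exact (h4 w).1 (by rw [h5]; trivial)

end CA.H10B60
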