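import Cfsg.Agent.Lib.Block.H11Cyclo
import Cfsg.Agent.Lib.Char.GalC
import Cfsg.Agent.Lib.Char.Ext
import Cfsg.Agent.Lib.Char.CharProd
import Cfsg.Agent.Lib.Block.BlkHeight

/-!
# Knörr's criterion for the bound `k(GV) ≤ |V|`
-/

set_option autoImplicit false
set_option linter.unusedSectionVars false
set_option linter.unusedVariables false

namespace CA.H10Kn
open Cfsg CA.BlkVal CChar.CharFun CChar.CharOrth CChar.CharInt CChar.CharKer CChar.CharProd
  Subgroup
open scoped ComplexConjugate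

theorem exists_one_le {b : ℂ} (hb : IsIntegral ℤ b) (h0 : b ≠ 0) : ∃ σ : ℂ ≃+* ℂ, 1 ≤ ‖σ b‖ := by
  let K := IntermediateField.adjoin ℚ {b}
  haveI : FiniteDimensional ℚ K := IntermediateField.adjoin.finiteDimensional hb.tower_top
  haveI : NumberField K := {}
  let x : K := IntermediateField.AdjoinSimple.gen ℚ b
  have hx : IsIntegral ℤ x := (isIntegral_algHom_iff (K.val.restrictScalars ℤ)
    Subtype.val_injective).1 hb
  obtain ⟨φ, hφ⟩ := NumberField.exists_conjugate_one_le_norm (K := K) (α := ⟨x, hx⟩)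
    (fun h => h0 (congrArg (fun y : NumberField.RingOfIntegers K => ((y : K) : ℂ)) h))
  obtain ⟨σ, hσ⟩ := CA.GalC.exists_equiv_comp (algebraMap K ℂ) φ
  exact ⟨σ, by rw [show b = algebraMap K ℂ x from rfl, hσ]; exact hφ⟩

theorem card_le_of_conj {ι : Type*} [Fintype ι] (a : ι → ℂ) (hi : ∀ i, IsIntegral ℤ (a i))
    (h0 : ∀ i, a i ≠ 0) {B : ℝ} (h : ∀ σ : ℂ ≃+* ℂ, ∑ i, ‖σ (a i)‖ ^ 2 ≤ B) :
    (Fintype.card ι : ℝ) ≤ B := by
  obtain ⟨σ, hσ⟩ := exists_one_le (IsIntegral.prod (s := Finset.univ) a fun i _ => hi i)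
    (Finset.prod_ne_zero_iff.2 fun i _ => h0 i)
  refine (CA.H11Cyclo.card_le_sum (fun i => pow_pos (norm_pos_iff.2 ?_) 2) ?_).trans (h σ)
  · simpa using h0 i
  · rw [Finset.prod_pow, ← norm_prod, ← map_prod]; exact one_le_pow₀ hσ

variable {H : Type*} [Group H] [Fintype H] {f g : H → ℂ}

/-- Combinations of characters with algebraic integer coefficients. -/
def OS (f : H → ℂ) : Prop :=
  IsClassFunction H f ∧ ∀ μ, IsIrrCharacter H μ → IsIntegral ℤ (classInner f μ)

theorem OS.of_char (h : IsCharacter H f) : OS f := ⟨char_classFun h, fun μ hμ => by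
  obtain ⟨n, hn⟩ := inner_char_char h (char_of_irr hμ)
  rw [hn]; exact isIntegral_natCast n⟩

theorem OS.zero : OS (0 : H → ℂ) := OS.of_char char_zero

theorem OS.add (h : OS f) (h' : OS g) : OS (f + g) :=
  ⟨CA.Ind.classFun_add h.1 h'.1, fun μ hμ => by
    rw [CA.Cons.ci_add_left]; exact (h.2 μ hμ).add (h'.2 μ hμ)⟩

theorem OS.smul (h : OS f) {c : ℂ} (hc : IsIntegral ℤ c) : OS (c • f) :=
  ⟨CA.Ind.classFun_smul h.1 c, fun μ hμ => by
    rw [CA.Cons.ci_smul_left]; exact hc.mul (h.2 μ hμ)⟩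

theorem OS.sum {ι : Type*} (s : Finset ι) {F : ι → H → ℂ} (h : ∀ i ∈ s, OS (F i)) :
    OS (∑ i ∈ s, F i) :=
  Finset.sum_induction F OS (fun _ _ => OS.add) OS.zero h

theorem OS.mul (h : OS f) (h' : OS g) : OS (f * g) := by
  rw [classFun_eq_sum h.1, classFun_eq_sum h'.1, Finset.sum_mul_sum]
  refine OS.sum _ fun μ _ => OS.sum _ fun ν _ => ?_
  rw [smul_mul_smul_comm]
  exact (OS.of_char (char_mul (char_of_irr μ.2) (char_of_irr ν.2))).smul
    ((h.2 _ μ.2).mul (h'.2 _ ν.2))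

theorem OS.int (h : OS f) (x : H) : IsIntegral ℤ (f x) := by
  rw [classFun_apply_eq_sum h.1]
  exact IsIntegral.sum _ fun μ _ => (h.2 _ μ.2).mul (char_isIntegral (char_of_irr μ.2) x)

theorem os_prod {P : Type*} [Group P] [Finite P] {ψ : P × H → ℂ} (hψ : IsCharacter (P × H) ψ)
    (s : P) : OS fun c => ψ (s, c) := by
  refine char_induction (P := fun ψ => OS fun c => ψ (s, c)) OS.zero (fun χ hχ => ?_)
    (fun φ ψ _ _ a b => a.add b) hψ
  obtain ⟨φ, θ, h1, h2, rfl⟩ := (irr_prod_iff χ).1 hχ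
  exact (OS.of_char (char_of_irr h2)).smul (char_isIntegral (char_of_irr h1) s)

/-- The Galois action on the irreducible characters. -/
noncomputable def gal (σ : ℂ ≃+* ℂ) : IrrCharacter H ≃ IrrCharacter H where
  toFun χ := ⟨fun g => σ (χ.1 g), CA.Cons.irr_map (σ : ℂ →+* ℂ) χ.2⟩
  invFun χ := ⟨fun g => σ.symm (χ.1 g), CA.Cons.irr_map (σ.symm : ℂ →+* ℂ) χ.2⟩
  left_inv χ := Subtype.ext (funext fun g => σ.symm_apply_apply _)
  right_inv χ := Subtype.ext (funext fun g => σ.apply_symm_apply _)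

theorem parseval (hf : IsClassFunction H f) (σ : ℂ ≃+* ℂ) :
    ∑ μ : IrrCharacter H, ‖σ (classInner f μ)‖ ^ 2 = (Nat.card H : ℝ)⁻¹ * ∑ c, ‖σ (f c)‖ ^ 2 := by
  have h1 := inner_eq_sum (CA.Ind.classFun_map hf σ) (fun c => σ (f c))
  rw [inner_self_eq, ← (gal σ).sum_comp] at h1
  simp only [Complex.mul_conj, Complex.normSq_eq_norm_sq] at h1
  have h2 : ∀ μ : IrrCharacter H, classInner (fun c => σ (f c)) (gal σ μ).1 = σ (classInner f μ) :=
    fun μ => CA.Cons.inner_map (σ : ℂ →+* ℂ) f (char_of_irr μ.2)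
  simp only [h2] at h1
  exact_mod_cast h1.symm

theorem not_dvd_deg {X : Type*} [Group X] [Finite X] {p : ℕ} (V : Subgroup X) [V.Normal]
    (hidx : ¬ p ∣ V.index) (hab : ∀ a ∈ V, ∀ b ∈ V, a * b = b * a) (χ : IrrCharacter X) :
    ¬ p ∣ charDegree χ.1 := by
  haveI := Fintype.ofFinite X
  haveI := Fintype.ofFinite V
  obtain ⟨θ, hθ, hi⟩ := CA.Cons.exists_irr_under V χ.2
  obtain ⟨e, he, h1⟩ := CA.Ext.exists_dvd_index hθ χ.2 hi
  rw [irr_apply_one_of_comm (fun a b => Subtype.ext (hab _ a.2 _ b.2)) hθ, mul_one] at h1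
  rw [charDegree_eq h1]
  exact fun h => hidx (h.trans he)

theorem card_cent_le {X : Type*} [Group X] [Finite X] {V G C : Subgroup X} [hV : V.Normal]
    (hab : ∀ a ∈ V, ∀ b ∈ V, a * b = b * a) (hGV : IsComplement' V G) {v : X} (hv : v ∈ V)
    (hC : C = G ⊓ centralizer {v}) (c : C) (hco : (orderOf v).Coprime (orderOf (c : X))) :
    Nat.card (centralizer ({v * c} : Set X)) ≤
      Nat.card (centralizer ({c} : Set C)) * Nat.card (V ⊓ centralizer {(c : X)} : Subgroup X) := by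
  have hc : c.1 ∈ G ⊓ centralizer {v} := hC ▸ c.2
  have hcm : Commute v c := (mem_centralizer_singleton_iff.1 hc.2).symm
  have key : ∀ x ∈ centralizer ({v * c} : Set X), ∃ d : centralizer ({c} : Set C),
      ∃ w : (V ⊓ centralizer {(c : X)} : Subgroup X), (w : X) * d.1 = x := by
    intro x hx
    have hx' : Commute x (v * c) := mem_centralizer_singleton_iff.1 hx
    have h1 : Commute x v := by
      obtain ⟨k, hk⟩ := exists_pow_eq_self_of_coprime (x := v) hco.symm
      have : (v * c) ^ (orderOf (c : X) * k) = v := by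
        rw [hcm.mul_pow, pow_mul, hk, pow_mul, pow_orderOf_eq_one, one_pow, mul_one]
      rw [← this]; exact hx'.pow_right _
    have h2 : Commute x c := by
      have := (h1.inv_right).mul_right hx'
      rwa [inv_mul_cancel_left] at this
    obtain ⟨⟨w, d⟩, e⟩ := hGV.2 x
    change (w : X) * d = x at e
    have h3 : (d : X) ∈ C := by
      rw [hC]
      refine ⟨d.2, mem_centralizer_singleton_iff.2 ?_⟩
      have e' : (d : X) = w⁻¹ * x := by rw [← e]; simp
      rw [e']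
      exact ((show Commute (w : X) v from hab _ w.2 _ hv).inv_left.mul_left h1).eq
    have h4 := hGV.1 (a₁ := (w, d * ⟨c, hc.1⟩))
      (a₂ := (⟨c * w * c⁻¹, hV.conj_mem _ w.2 _⟩, ⟨c, hc.1⟩ * d)) (by
        change (w : X) * (d * c) = c * w * c⁻¹ * (c * d)
        rw [← mul_assoc, e, h2.eq, ← e]; simp [mul_assoc])
    have h5 : (w : X) = c * w * (c : X)⁻¹ := congrArg (fun q => (q.1 : X)) h4
    have h6 : (d : X) * c = c * d := congrArg (fun q => (q.2 : X)) h4
    exact ⟨⟨⟨d, h3⟩, mem_centralizer_singleton_iff.2 (Subtype.ext h6)⟩,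
      ⟨w, w.2, mem_centralizer_singleton_iff.2 (by rw [eq_mul_inv_iff_mul_eq] at h5; exact h5)⟩, e⟩
  rw [← Nat.card_prod]
  choose d w hw using key
  refine Nat.card_le_card_of_injective (fun x => (d x.1 x.2, w x.1 x.2)) fun x y e => ?_
  apply Subtype.ext
  rw [← hw x.1 x.2, ← hw y.1 y.2, (Prod.mk.inj e).1, (Prod.mk.inj e).2]

theorem knorr {X : Type*} [Group X] [Finite X] {p : ℕ} [hp : Fact p.Prime] {M : Ideal AlgInt}
    (hM : IsPModular p M) {V G C : Subgroup X} [V.Normal] (hVexp : ∀ v ∈ V, v ^ p = 1)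
    (hidx : ¬ p ∣ V.index) (hab : ∀ a ∈ V, ∀ b ∈ V, a * b = b * a) (hGV : IsComplement' V G)
    {v : X} (hv : v ∈ V) (hC : C = G ⊓ centralizer {v}) [Fintype C] {γ : C → ℂ} (h1 : OS γ)
    (h2 : res M (γ 1) ≠ 0) (h3 : ∀ c, c ≠ 1 → res M (γ c) = 0)
    (h4 : ∀ (σ : ℂ ≃+* ℂ) (c : C), ‖σ (γ c)‖ ^ 2 *
      Nat.card (V ⊓ centralizer {(c : X)} : Subgroup X) ≤ Nat.card V) :
    Nat.card (ConjClasses X) ≤ Nat.card V := by
  classical
  haveI := Fintype.ofFinite X
  have hCG : C ≤ G := hC ▸ inf_le_left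
  have hpC : ¬ p ∣ Nat.card C := fun h => hidx (hGV.symm.index_eq_card ▸ h.trans (card_dvd_of_le hCG))
  obtain ⟨n, -, hn⟩ := (Nat.dvd_prime_pow hp.out (m := 1)).1
    (orderOf_dvd_of_pow_eq_one (by rw [pow_one]; exact hVexp v hv))
  have hcm : ∀ (s : zpowers v) (c : C), Commute (s : X) c := by
    rintro ⟨_, k, rfl⟩ c
    exact (show Commute v c from (mem_centralizer_singleton_iff.1 (hC.le c.2).2).symm).zpow_left k
  have hos : ∀ χ : IrrCharacter X, OS ((fun c : C => χ.1 (v * c)) * γ) := fun χ =>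
    (os_prod (char_comp (char_of_irr χ.2) ((zpowers v).subtype.noncommCoprod C.subtype hcm))
      ⟨v, mem_zpowers v⟩).mul h1
  have key := card_le_of_conj (ι := IrrCharacter X × IrrCharacter C)
    (fun q => classInner ((fun c : C => q.1.1 (v * c)) * γ) q.2) (fun q => (hos q.1).2 _ q.2.2)
    (B := Nat.card V * Nat.card (ConjClasses C)) ?_ ?_
  · rw [Fintype.card_prod, ← Nat.card_eq_fintype_card, ← Nat.card_eq_fintype_card, card_irr,
      card_irr] at key
    have : Nat.card (ConjClasses X) * Nat.card (ConjClasses C) ≤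
      Nat.card V * Nat.card (ConjClasses C) := by exact_mod_cast key
    exact Nat.le_of_mul_le_mul_right this Nat.card_pos
  · rintro ⟨χ, μ⟩ h0
    rw [CA.Cons.inner_char_right _ (char_of_irr μ.2), mul_eq_zero] at h0
    have h5 := h0.resolve_left (inv_ne_zero (CA.Ind.card_ne_zero C))
    have hm : ∀ c : C, χ.1 (v * c) ∈ O M ∧ γ c ∈ O M ∧ μ.1 c⁻¹ ∈ O M := fun c =>
      ⟨isIntegral_mem (char_isIntegral (char_of_irr χ.2) _), isIntegral_mem (h1.int c),
        isIntegral_mem (char_isIntegral (char_of_irr μ.2) _)⟩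
    have h6 := congrArg (res M) h5
    simp only [Pi.mul_apply] at h6
    rw [res_sum _ _ fun c _ => mul_mem (mul_mem (hm c).1 (hm c).2.1) (hm c).2.2,
      Finset.sum_eq_single 1, res_mul (mul_mem (hm 1).1 (hm 1).2.1) (hm 1).2.2,
      res_mul (hm 1).1 (hm 1).2.1, OneMemClass.coe_one, mul_one, inv_one,
      CA.BlkHeight.res_char_pElt hM (char_of_irr χ.2) ⟨n, hn⟩, irr_apply_one_eq χ.2,
      irr_apply_one_eq μ.2, res_natCast, res_natCast, res_zero, mul_eq_zero, mul_eq_zero,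
      natCast_k_eq_zero_iff hM, natCast_k_eq_zero_iff hM] at h6
    · rcases h6 with (h | h) | h
      · exact not_dvd_deg V hidx hab χ h
      · exact h2 h
      · exact hpC (h.trans (charDegree_dvd_card μ.2))
    · intro c _ hc
      rw [res_mul (mul_mem (hm c).1 (hm c).2.1) (hm c).2.2, res_mul (hm c).1 (hm c).2.1, h3 c hc]
      simp
    · simp
  · intro σ
    rw [Fintype.sum_prod_type]
    simp only [fun χ => parseval (hos χ).1 σ]
    rw [← Finset.mul_sum, Finset.sum_comm, inv_mul_le_iff₀ (by exact_mod_cast Nat.card_pos)]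
    have h5 := sum_card_centralizer (G := C)
    have h6 : (Nat.card C : ℝ) * (Nat.card V * Nat.card (ConjClasses C)) =
        ∑ c : C, (Nat.card V : ℝ) * Nat.card (centralizer ({c} : Set C)) := by
      rw [← Finset.mul_sum, ← Nat.cast_sum, h5]; push_cast; ring
    rw [h6]
    refine Finset.sum_le_sum fun c _ => ?_
    simp only [Pi.mul_apply, map_mul, norm_mul, mul_pow]
    rw [← Finset.sum_mul]
    have h7 : ∑ χ : IrrCharacter X, ‖σ (χ.1 (v * c))‖ ^ 2 =
        Nat.card (centralizer ({v * c} : Set X)) := by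
      rw [← sum_irr_norm_sq]; exact (gal σ).sum_comp fun χ => ‖χ.1 (v * c)‖ ^ 2
    have h8 := card_cent_le hab hGV hv hC c (by
      rw [hn, orderOf_coe]
      exact ((Nat.Prime.coprime_iff_not_dvd hp.out).2 fun h =>
        hpC (h.trans (orderOf_dvd_natCard c))).pow_left n)
    rw [h7]
    calc _ ≤ ((Nat.card (centralizer ({c} : Set C)) *
          Nat.card (V ⊓ centralizer {(c : X)} : Subgroup X) : ℕ) : ℝ) * ‖σ (γ c)‖ ^ 2 :=
          mul_le_mul_of_nonneg_right (by exact_mod_cast h8) (by positivity)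
      _ = Nat.card (centralizer ({c} : Set C)) * (‖σ (γ c)‖ ^ 2 *
          Nat.card (V ⊓ centralizer {(c : X)} : Subgroup X)) := by push_cast; ring
      _ ≤ _ := by
          rw [mul_comm (Nat.card V : ℝ)]
          exact mul_le_mul_of_nonneg_left (h4 σ c) (by positivity)

end CA.H10Kn
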