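import Cfsg.Agent.Lib.Block.H10PRat
import Cfsg.Agent.Lib.Char.CharMisc
import Cfsg.Agent.Lib.Solv.HH2
import Cfsg.Agent.Lib.Grp.H1SZ

/-! Schur's bound for rational characters of `p`-groups, and `p`-solvable linear groups. -/

set_option autoImplicit false
set_option linter.unusedSectionVars false

namespace CA.H10Sch
open Cfsg CA.BlkVal CA.BlkGal CA.BlkHeight CA.Clif CA.Ext CChar.CharFun CChar.CharOrth
  CChar.CharGen CChar.CharKer CChar.CharInt Subgroup
open scoped ComplexConjugate Pointwise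

theorem geom {z : ℂ} {m : ℕ} (h : z ^ m = 1) [Decidable (z = 1)] :
    ∑ j ∈ Finset.range m, z ^ j = if z = 1 then (m : ℂ) else 0 := by
  split_ifs with h1
  · simp [h1]
  · rw [geom_sum_eq h1 m, h, sub_self, zero_div]

variable {p : ℕ} {Q : Type*} [Group Q] [Finite Q] {ψ : Q → ℂ} {n : ℕ}

theorem sum_pow (hψ : IsCharacter Q ψ) (hn : ψ 1 = n) {g : Q} {m : ℕ} (hg : g ^ m = 1) :
    ∃ a ≤ n, ∑ j ∈ Finset.range m, ψ (g ^ j) = m * a := by
  classical
  obtain ⟨ω, h1, h2⟩ := char_exists_pow_eq_sum hψ hn g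
  refine ⟨(Finset.univ.filter fun i => ω i = 1).card,
    (Finset.card_le_univ _).trans_eq (Fintype.card_fin n), ?_⟩
  simp_rw [h2]
  rw [Finset.sum_comm, Finset.sum_congr rfl fun i _ => geom (show ω i ^ m = 1 from
    orderOf_dvd_iff_pow_eq_one.1 ((orderOf_dvd_of_pow_eq_one (h1 i)).trans
      (orderOf_dvd_of_pow_eq_one hg))), ← Finset.sum_filter, Finset.sum_const, nsmul_eq_mul,
    mul_comm]

theorem value (hp : p.Prime) (hQ : IsPGroup p Q) (hψ : IsCharacter Q ψ) (hn : ψ 1 = n)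
    (hrat : ∀ g j, j.Coprime p → ψ (g ^ j) = ψ g) {g : Q} (hg : g ∉ charKer ψ) :
    ∃ t ∈ Finset.Icc 1 (n / (p - 1)), ψ g = n - p * t := by
  haveI : Fact p.Prime := ⟨hp⟩
  obtain ⟨a, ha⟩ := IsPGroup.iff_card.1 hQ
  obtain ⟨c, hc⟩ := CA.GalC.exists_int_of_fixed (char_isIntegral hψ g) fun σ => by
    obtain ⟨k, h1, -, h2⟩ := exists_pow_of_gal (G := Q) σ.toRingHom
    rcases Nat.eq_zero_or_pos a with rfl | h0
    · rw [pow_zero, Nat.card_eq_one_iff_unique] at ha
      exact absurd (Subsingleton.elim (h := ha.1) g 1 ▸ one_mem _) hg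
    · rw [ha, Nat.coprime_pow_right_iff h0] at h1
      exact (h2 hψ g).trans (hrat g k h1)
  obtain ⟨M, hM⟩ := exists_isPModular hp
  obtain ⟨k, hk⟩ := IsPGroup.iff_orderOf.1 hQ g
  have h1 : (p : ℤ) ∣ n - c := by
    have := res_char_pElt hM hψ ⟨k, hk⟩
    rw [hc, hn, eq_comm, res_eq_res_iff (natCast_mem_O _) (intCast_mem_O _)] at this
    exact (v_intCast_lt_one_iff hM _).1 (by simpa using this)
  obtain ⟨t, ht⟩ := h1
  have h2 : c < n := by
    have := char_re_le hψ g
    rw [hc, hn] at this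
    refine lt_of_le_of_ne (by exact_mod_cast this) fun e => hg ((mem_charKer hψ).2 ?_)
    rw [hc, hn, e, Int.cast_natCast]
  obtain ⟨k, rfl⟩ : ∃ j, k = j + 1 := Nat.exists_eq_succ_of_ne_zero (by
    rintro rfl
    rw [pow_zero, orderOf_eq_one_iff] at hk
    exact hg (hk ▸ one_mem _))
  obtain ⟨a1, -, e1⟩ := sum_pow hψ hn (g := g) (m := p ^ (k + 1)) (hk ▸ pow_orderOf_eq_one g)
  obtain ⟨a2, h3, e2⟩ := sum_pow hψ hn (g := g ^ p) (m := p ^ k)
    (by rw [← pow_mul, ← pow_succ', ← hk, pow_orderOf_eq_one])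
  have e3 : ∑ j ∈ Finset.range (p ^ (k + 1)), (ψ (g ^ j) - c) =
      ∑ j ∈ Finset.range (p ^ k), (ψ ((g ^ p) ^ j) - c) := by
    symm
    refine Finset.sum_bij_ne_zero (fun j _ _ => p * j) (fun j hj _ => ?_) (fun i _ _ j _ _ e => ?_)
      (fun j hj h0 => ?_) fun j _ _ => by rw [pow_mul]
    · rw [Finset.mem_range] at hj ⊢
      rw [pow_succ']
      exact Nat.mul_lt_mul_of_pos_left hj hp.pos
    · exact Nat.eq_of_mul_eq_mul_left hp.pos e
    · obtain ⟨i, rfl⟩ : p ∣ j := by
        by_contra h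
        exact h0 (by rw [hrat g j (hp.coprime_iff_not_dvd.2 h).symm, hc, sub_self])
      rw [Finset.mem_range, pow_succ'] at hj
      exact ⟨i, Finset.mem_range.2 (Nat.lt_of_mul_lt_mul_left hj), by rwa [← pow_mul], rfl⟩
  rw [Finset.sum_sub_distrib, Finset.sum_sub_distrib, e1, e2, Finset.sum_const, Finset.sum_const,
    Finset.card_range, Finset.card_range, nsmul_eq_mul, nsmul_eq_mul] at e3
  have e4 : (p : ℤ) * (a1 - c) = a2 - c := by
    have h0 : (p : ℂ) ^ k ≠ 0 := pow_ne_zero _ (Nat.cast_ne_zero.2 hp.ne_zero)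
    have : (p : ℂ) * (a1 - c) = a2 - c := by
      refine mul_left_cancel₀ h0 ?_
      push_cast at e3
      linear_combination e3
    exact_mod_cast this
  have hp0 : (0 : ℤ) < p := by exact_mod_cast hp.pos
  have ht0 : 0 < t := pos_of_mul_pos_left (by rw [mul_comm, ← ht]; omega) hp0.le
  obtain ⟨t, rfl⟩ := Int.eq_ofNat_of_zero_le ht0.le
  refine ⟨t, Finset.mem_Icc.2 ⟨by exact_mod_cast ht0, ?_⟩, ?_⟩
  · rw [Nat.le_div_iff_mul_le (Nat.sub_pos_of_lt hp.one_lt)]
    have h4 : (a2 : ℤ) ≤ n := by exact_mod_cast h3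
    have h5 : (0 : ℤ) ≤ p * a1 := by positivity
    have h6 : (p : ℤ) * (t * (p - 1)) ≤ p * n := by nlinarith
    have h7 := le_of_mul_le_mul_left h6 hp0
    zify [hp.one_le]
    exact h7
  · rw [hc, show c = n - p * t by omega]
    push_cast
    rfl

/-- Schur's bound. -/
theorem schur (hp : p.Prime) (hQ : IsPGroup p Q) (hψ : IsCharacter Q ψ) (hn : ψ 1 = n)
    (hrat : ∀ g j, j.Coprime p → ψ (g ^ j) = ψ g) :
    (charKer ψ).index.factorization p ≤ ∑ i ∈ Finset.range (n + 1), n / ((p - 1) * p ^ i) := by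
  classical
  haveI := Fintype.ofFinite Q
  set m := n / (p - 1) with hm
  let Φ : Q → ℂ := ∏ t ∈ Finset.Icc 1 m, (ψ - (((n - p * t : ℤ) : ℂ)) • fun _ => 1)
  have h1 : IsGeneralizedCharacter Q Φ :=
    gen_prod _ fun t _ => gen_sub (gen_of_char hψ) (gen_intCast_smul _ gen_one)
  have h2 : ∀ g, Φ g = if g ∈ charKer ψ then ((p ^ m * m.factorial : ℕ) : ℂ) else 0 := by
    intro g
    simp only [Φ, Finset.prod_apply, Pi.sub_apply, Pi.smul_apply, smul_eq_mul, mul_one]
    split_ifs with hg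
    · rw [apply_of_mem_charKer hg, hn, ← Finset.prod_Ico_id_eq_factorial,
        Finset.Ico_add_one_right_eq_Icc]
      push_cast
      simp [Finset.prod_mul_distrib]
    · obtain ⟨t, ht, e⟩ := value hp hQ hψ hn hrat hg
      exact Finset.prod_eq_zero ht (by rw [e]; push_cast; ring)
  obtain ⟨c, hc⟩ := inner_gen_gen h1 gen_one
  have h3 : ((charKer ψ).index : ℤ) ∣ (p ^ m * m.factorial : ℕ) := by
    refine ⟨c, ?_⟩
    have h0 : (Nat.card (charKer ψ) : ℂ) ≠ 0 := Nat.cast_ne_zero.2 Nat.card_pos.ne'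
    have h0' : (Nat.card Q : ℂ) ≠ 0 := Nat.cast_ne_zero.2 Nat.card_pos.ne'
    rw [inner_def, inv_mul_eq_iff_eq_mul₀ h0'] at hc
    simp only [h2, map_one, mul_one] at hc
    rw [← Finset.sum_filter, Finset.sum_const, nsmul_eq_mul, ← Fintype.card_subtype,
      ← Nat.card_eq_fintype_card, ← (charKer ψ).card_mul_index,
      Nat.cast_mul (Nat.card (charKer ψ)), mul_assoc] at hc
    exact_mod_cast mul_left_cancel₀ h0 hc
  have h0 : p ^ m * m.factorial ≠ 0 := mul_ne_zero (pow_ne_zero _ hp.ne_zero) m.factorial_ne_zero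
  refine ((Nat.factorization_le_iff_dvd index_ne_zero_of_finite h0).2
    (Int.natCast_dvd_natCast.1 h3) p).trans_eq ?_
  rw [Nat.factorization_mul (pow_ne_zero _ hp.ne_zero) m.factorial_ne_zero, Finsupp.add_apply,
    hp.factorization_pow, Finsupp.single_eq_same, Nat.factorization_factorial hp
      (Nat.lt_succ_of_le ((Nat.log_le_self p m).trans (Nat.div_le_self _ _))),
    Finset.range_eq_Ico, Finset.sum_eq_sum_Ico_succ_bot n.succ_pos]
  simp only [hm, Nat.div_div_eq_div_mul, pow_zero, mul_one, zero_add]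

section ext
variable {G : Type*} [Group G] [Fintype G] {N : Subgroup G} [N.Normal]

theorem fix_char {σ : ℂ →+* ℂ} (hσ : ∀ z : ℂ, z ^ Nat.card Q = 1 → σ z = z)
    (hψ : IsCharacter Q ψ) (g : Q) : σ (ψ g) = ψ g := by
  obtain ⟨n, hn⟩ := char_apply_one hψ
  obtain ⟨ω, h1, h2⟩ := char_exists_pow_eq_sum hψ hn g
  have := h2 1
  rw [pow_one] at this
  rw [this, map_sum]
  exact Finset.sum_congr rfl fun i _ => hσ _ (by
    rw [pow_one]
    exact orderOf_dvd_iff_pow_eq_one.1 ((orderOf_dvd_of_pow_eq_one (h1 i)).trans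
      (orderOf_dvd_natCard g)))

theorem irr_map (σ : ℂ →+* ℂ) (hψ : IsIrrCharacter Q ψ) : IsIrrCharacter Q fun g => σ (ψ g) := by
  obtain ⟨k, h1, -, h2⟩ := exists_pow_of_gal (G := Q) σ
  simp only [h2 (char_of_irr hψ)]
  exact irr_pw h1 hψ

/-- Invariant characters of normal Hall subgroups extend without enlarging the field. -/
theorem rat_ext (hc : (Nat.card N).Coprime N.index) (d : ℕ) : ∀ θ : N → ℂ, IsCharacter N θ →
    θ 1 = d → (∀ g : G, cj g θ = θ) → ∃ ψ, IsCharacter G ψ ∧ (∀ n : N, ψ n = θ n) ∧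
      ∀ σ : ℂ →+* ℂ, (∀ z : ℂ, z ^ Nat.card N = 1 → σ z = z) → ∀ g, σ (ψ g) = ψ g := by
  classical
  haveI := Fintype.ofFinite N
  induction d using Nat.strong_induction_on with
  | _ d ih =>
  intro θ hθ hd hinv
  by_cases h0 : θ = 0
  · exact ⟨0, char_zero, fun n => by simp [h0], fun σ _ g => map_zero σ⟩
  obtain ⟨φ, hφ, h1⟩ := char_exists_irr_constituent hθ h0
  have hNT := le_inertia (irr_classFun hφ)
  set T := inertia φ with hT
  haveI := Fintype.ofFinite T
  have hφ' := (so_irr_iff hNT).2 hφ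
  have hcard : Nat.card (N.subgroupOf T) = Nat.card N := Nat.card_congr (subgroupOfEquivOfLe hNT).toEquiv
  have hc' : (N.subgroupOf T).index.Coprime (Nat.card (N.subgroupOf T)) := by
    rw [hcard]
    exact (hc.of_dvd_right (relIndex_dvd_index_of_le hNT)).symm
  obtain ⟨χ, ⟨h2, h3, h4⟩, h5⟩ := exists_canonical_ext hφ' (inertia_so_eq_top hNT le_rfl)
    (irr_apply_one_eq hφ') (Nat.Coprime.mul_right (hc'.of_dvd_right (detOrder_dvd_card _))
      (hc'.of_dvd_right (charDegree_dvd_card hφ')))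
  have h6 : (fun n : N => χ ⟨n, hNT n.2⟩) = φ := funext fun n => h3 ⟨⟨n, hNT n.2⟩, n.2⟩
  obtain ⟨h7, h8⟩ := corr_irr hNT hφ rfl h2 (by rw [h6, inner_irr_self hφ]; exact one_ne_zero)
  rw [h6, inner_irr_self hφ] at h8
  have h9 := clifford h7 hφ (by rw [h8]; exact one_ne_zero)
  rw [h8, one_smul] at h9
  have h10 : IsCharacter N (θ - fun n : N => indFun T χ n) := by
    refine char_of_inner_nat (classFun_sub (char_classFun hθ)
      (CA.Ind.classFun_res (irr_classFun h7) N)) fun ξ hξ => ?_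
    obtain ⟨k, hk⟩ := inner_char_char hθ (char_of_irr hξ)
    rw [ci_sub_left, h9, inner_sum_conjs hφ hξ, hk]
    split_ifs with h
    · obtain ⟨g, rfl⟩ := mem_conjs.1 h
      obtain ⟨k, rfl⟩ : ∃ j, k = j + 1 := Nat.exists_eq_succ_of_ne_zero (by
        rintro rfl
        rw [← hinv g, inner_cj_cj, Nat.cast_zero] at hk
        exact h1 hk)
      exact ⟨k, by simp⟩
    · exact ⟨k, sub_zero _⟩
  obtain ⟨e, he⟩ := char_apply_one h10
  have hlt : e < d := by
    have h11 := irr_apply_one_eq h7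
    have h12 := charDegree_pos h7
    have : (d : ℂ) = e + charDegree (indFun T χ) := by
      rw [← he, ← h11, ← hd]; simp
    have : d = e + charDegree (indFun T χ) := by exact_mod_cast this
    omega
  obtain ⟨ψ, g1, g2, g3⟩ := ih e hlt _ h10 he fun g => by
    rw [cj_sub, hinv, cj_res (irr_classFun h7)]
  refine ⟨ψ + indFun T χ, char_add g1 (char_of_irr h7), fun n => by simp [g2], fun σ hσ g => ?_⟩
  have h11 : (fun t => σ (χ t)) = χ := h5 _ (irr_map σ h2)
    (fun n => by rw [h3]; exact fix_char hσ (char_of_irr hφ) _)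
    (by rw [CA.H12Gl2.detOrder_map σ h2, h4]; exact hc'.of_dvd_right (detOrder_dvd_card _))
  have h12 := CA.Ind.indFun_map σ T χ
  rw [h11] at h12
  rw [Pi.add_apply, map_add, g3 σ hσ, ← congrFun h12 g]

end ext

/-- A `p`-group normalizing a `p'`-subgroup of a linear group. -/
theorem bound {G : Type*} [Group G] [Finite G] (hp : p.Prime) {χ : G → ℂ} (hχ : IsCharacter G χ)
    (hf : ∀ g, χ g = χ 1 → g = 1) (hn : χ 1 = n) {N R : Subgroup G} (hN : ¬ p ∣ Nat.card N)
    (hR : IsPGroup p R) (h : R ≤ normalizer (N : Set G)) :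
    ((centralizer (N : Set G)).relIndex R).factorization p ≤
      ∑ i ∈ Finset.range (n + 1), n / ((p - 1) * p ^ i) := by
  classical
  haveI : Fact p.Prime := ⟨hp⟩
  set J := N ⊔ R with hJ
  have hJN : J ≤ normalizer (N : Set G) := sup_le le_normalizer h
  haveI : (N.subgroupOf J).Normal := normal_subgroupOf_of_le_normalizer hJN
  haveI := Fintype.ofFinite J
  have hcard : Nat.card (N.subgroupOf J) = Nat.card N :=
    Nat.card_congr (subgroupOfEquivOfLe le_sup_left).toEquiv
  obtain ⟨a, ha⟩ := IsPGroup.iff_card.1 hR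
  have hc0 : (Nat.card N).Coprime (p ^ a) := (hp.coprime_iff_not_dvd.2 hN).symm.pow_right a
  have hc : (Nat.card (N.subgroupOf J)).Coprime (N.subgroupOf J).index := by
    rw [hcard]
    refine hc0.of_dvd_right ?_
    have e : N.subgroupOf J ⊔ R.subgroupOf J = ⊤ := by
      rw [← subgroupOf_sup le_sup_left le_sup_right, subgroupOf_self]
    rw [← relIndex_top_right, ← e, relIndex_sup_left, ← ha,
      ← Nat.card_congr (subgroupOfEquivOfLe (le_sup_right : R ≤ J)).toEquiv]
    exact relIndex_dvd_card _ _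
  have hχJ := char_comp hχ J.subtype
  obtain ⟨ψ, h1, h2, h3⟩ := rat_ext hc n _ (char_comp hχJ (N.subgroupOf J).subtype) hn
    (cj_res (char_classFun hχJ))
  have hψR := char_comp h1 (inclusion (le_sup_right : R ≤ J))
  have h4 := schur hp hR hψR ((h2 1).trans hn) fun g j hj => by
    obtain ⟨σ, g1, g2⟩ := CA.H10PRat.exists_fix_pow (m := Nat.card N) (j := j) Nat.card_pos.ne'
      (pow_ne_zero a hp.ne_zero) hc0 (hj.pow_right a)
    have g3 := h3 σ.toRingHom (fun z hz => g1 z (by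
      rw [hcard] at hz
      haveI : NeZero (Nat.card N) := ⟨Nat.card_pos.ne'⟩
      obtain ⟨i, -, rfl⟩ := (Complex.isPrimitiveRoot_exp _ Nat.card_pos.ne').eq_pow_of_pow_eq_one hz
      exact pow_mem (IntermediateField.mem_adjoin_simple_self _ _) i))
    obtain ⟨ω, g4, g5⟩ := char_exists_pow_eq_sum hψR ((h2 1).trans hn) g
    have g6 := g5 1
    rw [pow_one] at g6
    rw [g5, ← g3, g6, map_sum]
    refine Finset.sum_congr rfl fun i _ => ?_
    rw [pow_one]
    exact (g2 _ (orderOf_dvd_iff_pow_eq_one.1 ((orderOf_dvd_of_pow_eq_one (g4 i)).trans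
      (ha ▸ orderOf_dvd_natCard g)))).symm
  refine le_trans ((Nat.factorization_le_iff_dvd index_ne_zero_of_finite index_ne_zero_of_finite).2
    (index_dvd_of_le fun x hx y hy => ?_) p) h4
  have hx' : inclusion (le_sup_right : R ≤ J) x ∈ charKer ψ :=
    (mem_charKer h1).2 (by simpa using apply_of_mem_charKer hx)
  set x' := inclusion (le_sup_right : R ≤ J) x
  let y' : J := ⟨y, mem_sup_left hy⟩
  have g1 : y' * x' * y'⁻¹ * x'⁻¹ ∈ charKer ψ :=
    mul_mem ((charKer_normal ψ).conj_mem _ hx' _) (inv_mem hx')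
  have g2 : y' * x' * y'⁻¹ * x'⁻¹ ∈ N.subgroupOf J := by
    rw [mul_assoc, mul_assoc, ← mul_assoc x']
    exact mul_mem hy (Normal.conj_mem (H := N.subgroupOf J) inferInstance _ (inv_mem hy) _)
  have g3 := hf _ ((h2 ⟨_, g2⟩).symm.trans ((apply_of_mem_charKer g1).trans (h2 1)))
  change y * x * y⁻¹ * (x : G)⁻¹ = 1 at g3
  rwa [mul_inv_eq_one, mul_inv_eq_iff_eq_mul] at g3

/-- The action of a Sylow subgroup on a complement to `O_p` in `O_{p,p'}`. -/
theorem exists_pair {G : Type*} [Group G] [Finite G] (hp : p.Prime) (hs : IsPSolvable p G) :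
    ∃ N R : Subgroup G, ¬ p ∣ Nat.card N ∧ IsPGroup p R ∧ R ≤ normalizer (N : Set G) ∧
      (pCore p G).index.factorization p ≤ ((centralizer (N : Set G)).relIndex R).factorization p := by
  haveI : Fact p.Prime := ⟨hp⟩
  set O := pCore p G with hO
  set π := QuotientGroup.mk' O
  set K := (pPrimeCore p (G ⧸ O)).comap π with hK
  have hOK : O ≤ K := fun x hx => by
    rw [hK, mem_comap, show π x = 1 from (QuotientGroup.eq_one_iff x).2 hx]; exact one_mem _
  have hKm : K.map π = pPrimeCore p (G ⧸ O) := map_comap_eq_self_of_surjective (QuotientGroup.mk'_surjective O) _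
  have hrel : O.relIndex K = Nat.card (pPrimeCore p (G ⧸ O)) := by
    rw [← hKm, ← relIndex_ker, QuotientGroup.ker_mk']
  have hnd := CA.BlkKer.not_dvd_card_pPrimeCore (G := G ⧸ O) hp
  obtain ⟨b, hb⟩ := IsPGroup.iff_card.1 (CA.Core.isPGroup_pCore (p := p) (G := G))
  have hc : (Nat.card O).Coprime (O.relIndex K) := by
    rw [hrel, hb]; exact (hp.coprime_iff_not_dvd.2 hnd).pow_left b
  obtain ⟨N, h1, h2, h3⟩ := CA.H1SZ.exists_complement_le hOK hc
  have hfr : normalizer (N : Set G) ⊔ O = ⊤ := eq_top_iff.2 fun g _ => by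
    haveI := (CA.Core.isPGroup_pCore (p := p) (G := G)).isNilpotent
    obtain ⟨a, ha, e⟩ := CA.H1SZ.conj_of_le_sup (N := O) (H := MulAut.conj g • N) (K := N)
      (h2 ▸ hc.symm) (Or.inl inferInstance) (by
        rw [h3]
        rintro _ ⟨x, hx, rfl⟩
        exact Normal.conj_mem inferInstance x (h1 hx) g)
      (Nat.card_congr (equivSMul (MulAut.conj g) N).toEquiv.symm)
    rw [← mul_smul, ← map_mul] at e
    have : a * g ∈ normalizer (N : Set G) := conjAct_pointwise_smul_iff.1 e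
    rw [show g = a⁻¹ * (a * g) by group]
    exact mul_mem (mem_sup_right (inv_mem ha)) (mem_sup_left this)
  set L := normalizer (N : Set G)
  obtain ⟨S⟩ : Nonempty (Sylow p L) := inferInstance
  have hsurj : Function.Surjective (π.comp L.subtype) := by
    rw [← MonoidHom.range_eq_top, MonoidHom.range_comp, range_subtype, eq_top_iff,
      ← map_top_of_surjective _ (QuotientGroup.mk'_surjective O), ← hfr, Subgroup.map_sup,
      QuotientGroup.map_mk'_self, sup_bot_eq]
  set R := (S : Subgroup L).map L.subtype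
  have hR : IsPGroup p R := S.isPGroup'.map _
  refine ⟨N, R, by rwa [h2, hrel], hR, map_subtype_le _, ?_⟩
  have h4 : O.relIndex R = p ^ O.index.factorization p := by
    have := (S.mapSurjective hsurj).card_eq_multiplicity
    rw [Sylow.coe_mapSurjective, ← map_map, ← relIndex_ker, QuotientGroup.ker_mk'] at this
    exact this
  have h5 : (centralizer (N : Set G)).subgroupOf R ≤ O.subgroupOf R := fun x hx => by
    have g1 : π x ∈ pPrimeCore p (G ⧸ O) := CA.HH.cent_p'core
      (CA.H12PSolv.psolv_quotient hs O) CA.Core.pCore_quotient_pCore (by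
        rw [← hKm, ← h3, Subgroup.map_sup, QuotientGroup.map_mk'_self, sup_bot_eq]
        rintro _ ⟨y, hy, rfl⟩
        rw [← map_mul, ← map_mul]
        exact congrArg π (hx y hy))
    obtain ⟨k, hk⟩ := hR x
    have g2 : π x ^ p ^ k = 1 := by
      rw [← map_pow, ← coe_pow, hk, coe_one, map_one]
    have g3 : π x = 1 := orderOf_eq_one_iff.1 (Nat.eq_one_of_dvd_coprimes
      ((hp.coprime_iff_not_dvd.2 hnd).pow_left k) (orderOf_dvd_of_pow_eq_one g2)
      (orderOf_dvd_natCard _ g1))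
    exact (QuotientGroup.eq_one_iff (x : G)).1 g3
  exact (hp.pow_dvd_iff_le_factorization index_ne_zero_of_finite).1 (h4 ▸ index_dvd_of_le h5)

theorem psolv_bound {G : Type*} [Group G] [Finite G] (hp : p.Prime) (hs : IsPSolvable p G)
    {χ : G → ℂ} (hχ : IsCharacter G χ) (hf : ∀ g, χ g = χ 1 → g = 1) (hn : χ 1 = n) :
    (pCore p G).index.factorization p ≤ ∑ i ∈ Finset.range (n + 1), n / ((p - 1) * p ^ i) := by
  obtain ⟨N, R, h1, h2, h3, h4⟩ := exists_pair hp hs
  exact h4.trans (bound hp hχ hf hn h1 h2 h3)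

end CA.H10Sch
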