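import Cfsg.Agent.Lib.Char.H12Berger

/-!
# Berger's theorem: quasi-primitive characters of solvable groups are primitive
-/

set_option autoImplicit false
set_option linter.unusedSectionVars false
set_option linter.unusedVariables false

namespace CA.H12Berger2
open Cfsg CA.PF CA.OQuo CA.H12Gl CA.H12Gl2 CA.H12Gl3 CA.H12Tri CA.H12Mon CA.H12Berger Subgroup
  Function
open CA.BG hiding cj cj_one cj_mul cj_inv_cj cj_cj_inv mem_cent1
open scoped ComplexConjugate commutatorElement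

universe u

variable {Γ : Type*} [Group Γ] [Fintype Γ] {G H K L M N U C : Subgroup Γ}
  {χ β θ φ ψ : Γ → ℂ}

theorem irr_of_mul_irr (hφ : IsChar K φ) (hψ : IsChar K ψ) (h : φ * ψ ∈ irr K) : φ ∈ irr K := by
  have h0 := irr_one_ne h
  rw [Pi.mul_apply] at h0
  obtain ⟨ξ, h1, h2⟩ := hφ.exists_irr fun e => left_ne_zero_of_mul h0 (congrFun e 1)
  have h3 := hφ.sub_irr h1 h2
  have h4 := ((irr_char h1).mul hψ).eq_zero_of_add_irr (h3.mul hψ) (by
    rwa [← add_mul, add_sub_cancel]) fun e =>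
      mul_ne_zero (irr_one_ne h1) (right_ne_zero_of_mul h0) (congrFun e 1)
  rwa [sub_eq_zero.1 (h3.eq_zero ((mul_eq_zero.1 (congrFun h4 1)).resolve_right
    (right_ne_zero_of_mul h0)))]

/-- `χ` is induced from a proper subgroup containing a normal subgroup above `N`. -/
def Red (N : Subgroup Γ) (χ : Γ → ℂ) : Prop :=
  ∃ M T, Nrm M ⊤ ∧ N < M ∧ M ≤ T ∧ T ≠ ⊤ ∧ ∃ ψ, IsChar T ψ ∧ Ind ⊤ T ψ = χ

section pb
variable {E : Type*} [Group E] [Fintype E] {f : E →* Γ} {α η : E → ℂ}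

theorem Red.comap (hf : Surjective f) (h : Red N χ) : Red (N.comap f) (χ ∘ f) := by
  obtain ⟨M, T, h1, h2, h3, h4, ψ, h5, rfl⟩ := h
  have := h1.normal_of_top
  refine ⟨M.comap f, T.comap f, nrm_top _, (comap_lt_comap_of_surjective hf).2 h2,
    comap_mono h3, fun e => h4 (comap_injective hf (e.trans (comap_top f).symm)), ψ ∘ f,
    pb_char h5, by rw [pb_Ind hf, comap_top]⟩

theorem Red.map (hf : Surjective f) (h : Red (N.comap f) α) (hη : IsChar ⊤ η)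
    (e : χ ∘ f = α * η) : Red N χ := by
  obtain ⟨M, T, h1, h2, h3, h4, ψ, h5, rfl⟩ := h
  have := h1.normal_of_top
  have hM : f.ker ≤ M := (ker_le_comap f N).trans h2.le
  have hT := comap_map_eq_self (hM.trans h3)
  have h6 := h5.mul (hη.Res le_top)
  rw [mul_Res_of_on h5.1] at h6
  rw [← Ind_mul _ _ (CF_inv hη.CF)] at e
  obtain ⟨ξ, h7⟩ := exists_pb hf ((sub_cfker_Ind le_top (nrm_top f.ker).le_normalizer
    (hM.trans h3) h6).1 (e ▸ ker_le_cfker χ))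
  have := Normal.map this f hf
  refine ⟨M.map f, T.map f, nrm_top _, (comap_lt_comap_of_surjective hf).1
    (by rwa [comap_map_eq_self hM]), map_mono h3, fun e => h4 (by rw [← hT, e, comap_top]), ξ,
    (pb_char_iff hf).1 (by rwa [hT, ← h7]), hf.injective_comp_right ?_⟩
  simp only
  rw [pb_Ind hf, comap_top, hT, ← h7, e]

end pb

/-- The fibre product `K ⋊ H`. -/
def fib (H K : Subgroup Γ) [K.Normal] : Subgroup (Γ × Γ) where
  carrier := {x | x.2 ∈ H ∧ x.1 * x.2⁻¹ ∈ K}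
  one_mem' := ⟨H.one_mem, by simp⟩
  mul_mem' {a b} ha hb := ⟨H.mul_mem ha.1 hb.1, by
    have := K.mul_mem (‹K.Normal›.conj_mem _ hb.2 a.1) ha.2
    rwa [show a.1 * (b.1 * b.2⁻¹) * a.1⁻¹ * (a.1 * a.2⁻¹) = (a * b).1 * (a * b).2⁻¹ by
      simp only [Prod.fst_mul, Prod.snd_mul]; group] at this⟩
  inv_mem' {a} ha := ⟨H.inv_mem ha.1, by
    have := ‹K.Normal›.conj_mem _ (K.inv_mem ha.2) a.1⁻¹
    rwa [show a.1⁻¹ * (a.1 * a.2⁻¹)⁻¹ * a.1⁻¹⁻¹ = a⁻¹.1 * a⁻¹.2⁻¹ by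
      simp only [Prod.fst_inv, Prod.snd_inv]; group] at this⟩

theorem red_central [K.Normal] (hH : IsCoatom H) (hN : ⊤ ≤ 𝓒(N)) (h1 : H ⊓ K = N)
    (h2 : H ⊔ K = ⊤) {n : ℕ} (hs : derivedSeries Γ n ≤ N) (hθ : θ ∈ irr H)
    (hχ : Ind ⊤ H θ ∈ irr (⊤ : Subgroup Γ)) : Red N (Ind ⊤ H θ) := by
  have := Fintype.ofFinite (fib H K)
  have hNH : N ≤ H := h1 ▸ inf_le_left
  have hNK : N ≤ K := h1 ▸ inf_le_right
  have hNn : N.Normal := (nrm_of_le_normalizer le_top (norm_of_cent hN)).normal_of_top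
  set f : fib H K →* Γ := (MonoidHom.fst Γ Γ).comp (fib H K).subtype
  set g : fib H K →* Γ := (MonoidHom.snd Γ Γ).comp (fib H K).subtype
  have hf : Surjective f := fun x => by
    obtain ⟨k, hk, a, ha, e⟩ := (mem_sup_norm' (le_top.trans (nrm_top K).le_normalizer)).1
      ((sup_comm H K ▸ h2).ge (mem_top x))
    exact ⟨⟨(x, a), ha, by simpa [← e] using hk⟩, rfl⟩
  have hc : ∀ z ∈ N, ∀ y, z * y = y * z := fun z hz y => mem_cent.1 (hN (mem_top y)) z hz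
  have hm : ∀ x : H.comap f, f x * (g x)⁻¹ ∈ N := fun x =>
    h1.le ⟨H.mul_mem x.2 (H.inv_mem x.1.2.1), x.1.2.2⟩
  obtain ⟨l, hl⟩ := exists_lin_of_central hθ hNH
    ((comm_eq_bot_iff.2 (cent_symm (le_top.trans hN))).le.trans bot_le)
  let d : H.comap f →* N :=
    { toFun x := ⟨_, hm x⟩
      map_one' := Subtype.ext (by simp)
      map_mul' x y := Subtype.ext (by
        simp only [Subgroup.coe_mul, map_mul]
        rw [mul_assoc (f x) _⁻¹, ← hc _ (hm y)]; group) }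
  have hg : IsChar ⊤ (θ ∘ g) := by
    have h3 := pb_char (f := g) (irr_char hθ)
    rwa [show H.comap g = ⊤ from eq_top_iff.2 fun x _ => x.2.1] at h3
  have e : Ind ⊤ H θ ∘ f = Ind ⊤ (H.comap f) (lin (Lin.mk (l.hom.comp d))) * θ ∘ g := by
    rw [pb_Ind hf, comap_top, ← Ind_mul _ _ (CF_inv hg.CF)]
    congr 1
    refine CF_ext (pb_on (irr_on hθ)) (cfOn_mul_right (lin_on _) _) fun x hx => ?_
    have h3 := hl _ (hm ⟨x, hx⟩) (g x)
    rw [inv_mul_cancel_right, lin_of_mem l (hm ⟨x, hx⟩)] at h3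
    rw [Pi.mul_apply, lin_of_mem _ hx]
    exact h3
  have h3 := irr_of_mul_irr ((irr_char (lin_irr _)).Ind le_top) hg
    (e ▸ comap_top f ▸ pb_irr hf hχ)
  obtain ⟨M, h4, h5, h6⟩ := exists_not_hmg (isCoatom_comap_of_surjective hf hH)
    (nrm_top (N.comap f)) (comap_mono hNH) (solOver_of_derived (n := n)
      ((map_le_iff_le_comap.1 (map_derivedSeries_le_derivedSeries f n)).trans (comap_mono hs)))
    (lin_irr _) (((irr_char (lin_irr _)).Res (comap_mono hNH)).irr_of_one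
      (by rw [Res_one, lin_apply_one])) h3
  obtain ⟨T, h7, h8, ψ, h9, h10⟩ := exists_Ind_of_not_hmg h4 h3 h6
  refine Red.map hf ⟨M, T, h4, h5.lt_of_ne fun h => h6 ?_, h7, h8.ne, ψ, irr_char h9, h10⟩ hg e
  obtain ⟨φ, h11, h12⟩ := exists_irr_under le_top h3
  refine hmg_of_stab h4 h3 h11 h12 fun x _ => cent_le_stab (irr_on h11) (mem_cent.2 fun z hz => ?_)
  rw [← h] at hz
  refine Subtype.ext (Prod.ext (hc _ hz _) (hc _ (h1.le ⟨z.2.1, ?_⟩) _))
  simpa [f] using K.mul_mem (K.inv_mem z.2.2) (hNK hz)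

theorem red_hmg {Γ : Type u} [Group Γ] [Fintype Γ] {H K N : Subgroup Γ} {θ : Γ → ℂ} [K.Normal]
    (hH : IsCoatom H) (hN : Nrm N ⊤) (h1 : H ⊓ K = N) (h2 : H ⊔ K = ⊤) {n : ℕ}
    (hs : derivedSeries Γ n ≤ N) (hθ : θ ∈ irr H) (hχ : Ind ⊤ H θ ∈ irr (⊤ : Subgroup Γ))
    (hh : Hmg N (Ind ⊤ H θ)) : Red N (Ind ⊤ H θ) := by
  have hNH : N ≤ H := h1 ▸ inf_le_left
  have hNK : N ≤ K := h1 ▸ inf_le_right
  obtain ⟨φ, h3, h4⟩ := exists_irr_under hNH hθ
  obtain ⟨E, _, _, Q, _, _, π, ρ, η, lam, T⟩ := exists_tri hN h3 (hh.le_stab hN.le_normalizer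
    (irr_CInv hχ) h3 (dot_Ind_Res_ne le_top hNH hθ h3 h4))
  obtain ⟨β, h5, h6, -⟩ := T.down hNH hθ h4
  have e : Ind ⊤ H θ ∘ π = Ind ⊤ (st π ρ H) β ∘ ρ * η := by
    rw [pb_Ind T.sπ, pb_Ind T.sρ, comap_top, comap_top, T.comap_st hNH, h6,
      Ind_mul _ _ (irr_CInv T.irrη)]
  have : (st π ρ K).Normal := Nrm.normal_of_top (T.st_top ▸ T.nrm_st hNK (nrm_top K))
  refine Red.map T.sπ (T.comap_st le_rfl ▸ Red.comap T.sρ (red_central (K := st π ρ K) ?_ T.central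
    ?_ ?_ (T.derived_le hs) h5 ?_)) (irr_char T.irrη) e
  · have h7 := T.comap_st hNH ▸ isCoatom_comap_of_surjective T.sπ hH
    exact ⟨fun h => h7.1 (by rw [h, comap_top]), fun X h => comap_injective T.sρ
      ((h7.2 _ ((comap_lt_comap_of_surjective T.sρ).2 h)).trans (comap_top ρ).symm)⟩
  · exact comap_injective T.sρ (by
      rw [comap_inf, T.comap_st hNH, T.comap_st hNK, T.comap_st le_rfl, ← comap_inf, h1])
  · rw [st, st, ← Subgroup.map_sup, comap_sup_eq π _ _ T.sπ, h2]; exact T.st_top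
  · refine irr_of_char ((irr_char h5).Ind le_top) ?_
    rw [← T.st_top, ← T.dot_eq le_top (T.st_top ▸ e) (T.st_top ▸ e), dot_irr_self hχ]

theorem berger {Γ : Type u} [Group Γ] [Fintype Γ] {χ : Γ → ℂ} (hχ : χ ∈ irr (⊤ : Subgroup Γ))
    {N : Subgroup Γ} (hN : Nrm N ⊤) {n : ℕ} (hs : derivedSeries Γ n ≤ N)
    (hh : ∀ M, Nrm M ⊤ → N ≤ M → Hmg M χ) {T : Subgroup Γ} (h1 : N ≤ T) (h2 : T ≠ ⊤)
    {ψ : Γ → ℂ} (hψ : IsChar T ψ) : Ind ⊤ T ψ ≠ χ := by
  induction N using WellFoundedGT.induction generalizing T ψ with | ind N ih => ?_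
  rintro rfl
  obtain ⟨H, h3, h4⟩ := exists_coatom_ge h2
  have h5 := hψ.Ind h4
  rw [← Ind_Ind (le_top : H ≤ ⊤)] at hχ hh ih
  have key : ¬ Red N (Ind ⊤ H (Ind H T ψ)) := fun ⟨M, U, h6, h7, h8, h9, ξ, h10, h11⟩ =>
    ih M h7 h6 (hs.trans h7.le) (fun L a b => hh L a (h7.le.trans b)) h8 h9 h10 h11
  have hNH := h1.trans h4
  obtain ⟨K, -, hK⟩ := exists_chief_above (hNH.trans_lt h3.lt_top) le_rfl hN.le_normalizer
    le_normalizer
  have hKn := nrm_of_le_normalizer le_top hK.2.2.1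
  have h6 : ¬ K ≤ H := fun h => key ⟨K, H, hKn, hK.1, h, h3.1, _, h5, rfl⟩
  have h7 : H ⊔ K = ⊤ := h3.2 _ (left_lt_sup.2 h6)
  have := hKn.normal_of_top
  refine key (red_hmg h3 hN ((hK.2.2.2.2 _ (le_inf hNH hK.1.le) inf_le_right (h7.ge.trans (sup_le
    (norm_inf le_normalizer (le_top.trans hK.2.2.1)) (norm_of_der_le
      (((solOver_of_derived hs).der_le hK le_rfl le_top).trans (le_inf hNH hK.1.le))
      inf_le_right)))).resolve_right fun h => h6 (h.ge.trans inf_le_left)) h7 hs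
    (irr_of_Ind_irr le_top h5 hχ) hχ (hh N hN le_rfl))

end CA.H12Berger2
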