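import Cfsg.Agent.Lib.Char.H10B60
import Cfsg.Agent.Lib.Solv.H8Wt
import Cfsg.Agent.Lib.Loc.AmbSpe

/-! Irreducible linear groups of degree less than `2p` with nonabelian Sylow `p`-subgroups. -/

set_option autoImplicit false
set_option linter.unusedSectionVars false

namespace CA.H8Bli
open Module Module.End CChar.CharRep CA.H10Jor CA.H8Wt MulAction Subgroup
open scoped InnerProductSpace

theorem sum_le {ι V : Type*} [Fintype ι] [AddCommGroup V] [Module ℂ V] [FiniteDimensional ℂ V]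
    {W : ι → Submodule ℂ V} (h : iSupIndep W) : ∑ i, finrank ℂ (W i) ≤ finrank ℂ V := by
  classical
  rw [← finrank_directSum]
  exact LinearMap.finrank_le_finrank_of_injective (f := DirectSum.coeLinearMap W) h.dfinsupp_lsum_injective

variable {G : Type*} [Group G] [Finite G] {n : ℕ} (ρ : Representation ℂ G (Fin n → ℂ))

theorem span_eig (g : G) : ⨆ α, eigenspace (ρ g) α = ⊤ := by
  refine IsSemisimple.iSup_eigenspace_eq_top (isSemisimple_of_squarefree_aeval_eq_zero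
    (p := Polynomial.X ^ Nat.card G - Polynomial.C 1) ?_ ?_)
  · exact (Polynomial.separable_X_pow_sub_C 1 (Nat.cast_ne_zero.2 Nat.card_pos.ne') one_ne_zero).squarefree
  · rw [map_sub, map_pow, Polynomial.aeval_X, ← map_pow, pow_card_eq_one']; simp

theorem dvd_dim {P : Subgroup G} {U : Submodule ℂ (Fin n → ℂ)} (hU : ∀ g ∈ P, ∀ v ∈ U, ρ g v ∈ U) {x : G}
    (hx : x ∈ ⁅P, P⁆) {α : ℂ} {p : ℕ} (hα : IsPrimitiveRoot α p) (h : ∀ v ∈ U, ρ x v = α • v) : p ∣ finrank ℂ U := by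
  let S : Subrepresentation (ρ.comp P.subtype) := ⟨U, fun g v hv => hU g g.2 v hv⟩
  let d : P →* ℂˣ := (LinearMap.det.comp S.toRepresentation).toHomUnits
  rw [← map_subtype_commutator] at hx
  obtain ⟨y, hy, rfl⟩ := hx
  have h1 : d y = 1 := Abelianization.commutator_subset_ker d hy
  have h2 : S.toRepresentation y = α • LinearMap.id := LinearMap.ext fun v => Subtype.ext (h v v.2)
  have h3 : LinearMap.det (S.toRepresentation y) = 1 := congrArg Units.val h1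
  rw [h2, LinearMap.det_smul, LinearMap.det_id, mul_one] at h3
  exact hα.dvd_of_pow_eq_one _ h3

theorem stab' {x : G} {c : ℂ} (hc : ‖c‖ = 1) (h : ∀ (α : ℂ) v, v ≠ 0 → ρ x v = α • v → ‖α - c‖ < 1) (g : G)
    {v : Fin n → ℂ} (hv : ρ x v = c • v) : ρ x (ρ (g⁻¹ * x * g) v) = c • ρ (g⁻¹ * x * g) v := by
  letI := Fintype.ofFinite G
  obtain ⟨W, e, he⟩ := exists_unitary ρ
  let σ : G →* (W →L[ℂ] W) :=
    (Module.End.toContinuousLinearMap W).toAlgHom.toMonoidHom.comp (transport ρ e)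
  have h1 : ∀ g w, σ g w = e (ρ g (e.symm w)) := fun g w => rfl
  have := H10B60.stab (W := W) (σ := σ) (fun g v w => by
    rw [h1, h1, he, e.apply_symm_apply, e.apply_symm_apply]) hc (x := x)
    (fun α u hu e' => h α (e.symm u) (by simpa using hu) (e.injective (by
      rw [← h1, e', map_smul, e.apply_symm_apply]))) g (v := e v)
    (by rw [h1, e.symm_apply_apply, hv, map_smul])
  rw [h1, h1, e.symm_apply_apply, e.symm_apply_apply, ← map_smul] at this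
  exact e.injective this

theorem near {p : ℕ} (h7 : 7 ≤ p) : ‖Complex.exp (2 * Real.pi * Complex.I / p) - 1‖ < 1 := by
  have h1 : (2 * Real.pi * Complex.I / p : ℂ) = Complex.I * (2 * Real.pi / p : ℝ) := by push_cast; ring
  rw [h1]
  refine Real.norm_exp_I_mul_ofReal_sub_one_le.trans_lt ?_
  have h2 : (7 : ℝ) ≤ p := by exact_mod_cast h7
  have := Real.pi_lt_d2
  have := Real.pi_pos
  rw [Real.norm_of_nonneg (by positivity), div_lt_one (by linarith)]
  linarith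

theorem prim {p : ℕ} (hp : p.Prime) {x : G} (hx : x ^ p = 1) {α : ℂ} (h1 : α ≠ 1) {v : Fin n → ℂ} (h0 : v ≠ 0)
    (hv : ρ x v = α • v) : IsPrimitiveRoot α p := by
  haveI := Fact.mk hp
  have h2 := HasEigenvector.pow_apply (f := ρ x) ⟨mem_eigenspace_iff.2 hv, h0⟩ p
  rw [← map_pow, hx, map_one] at h2
  have h3 : α ^ p = 1 := smul_left_injective ℂ h0 (by simpa using h2.symm)
  exact orderOf_eq_prime h3 h1 ▸ IsPrimitiveRoot.orderOf α

theorem exists_x (hi : Function.Injective ρ) {p : ℕ} (hp : p.Prime) (h7 : 7 ≤ p) (hn : n < 2 * p) {P : Subgroup G}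
    (hP : IsPGroup p P) (hna : ⁅P, P⁆ ≠ ⊥) : ∃ x ∈ ⁅P, P⁆, ∃ ω : ℂ, IsPrimitiveRoot ω p ∧
      (∃ v ≠ 0, ρ x v = ω • v) ∧ ∀ g, x * (g⁻¹ * x * g) = g⁻¹ * x * g * x := by
  haveI := Fact.mk hp
  haveI : NeZero p := ⟨hp.ne_zero⟩
  obtain ⟨z, hz, hzp, hz1, hzc⟩ : ∃ z ∈ ⁅P, P⁆, z ^ p = 1 ∧ z ≠ 1 ∧ ∀ g ∈ P, g * z = z * g := by
    have h1 : IsPGroup p ↥⁅P, P⁆ := hP.to_le (AmbRes.comm_le_of_le le_rfl le_rfl)
    obtain ⟨z, hz, h2, h3⟩ := AmbSpe.exists_mem_pow_eq_one (h1.to_le inf_le_left) (AmbSyl.inf_centralizer_ne_bot hP h1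
      (Amb.norm_commutator le_normalizer le_normalizer) hna)
    exact ⟨z, hz.1, h3, h2, hz.2⟩
  obtain ⟨α, hα, v, h0, hv⟩ : ∃ α ≠ (1 : ℂ), ∃ v ≠ 0, ρ z v = α • v := by
    by_contra! h
    refine hz1 (hi (LinearMap.ext fun v => ?_))
    have : eigenspace (ρ z) 1 = ⊤ := eq_top_iff.2 ((span_eig ρ z).ge.trans (iSup_le fun α => by
      by_cases e : α = 1
      · rw [e]
      · exact fun w hw => (by_contra fun e' => h α e w e' (mem_eigenspace_iff.1 hw) : w = 0) ▸ zero_mem _))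
    simpa using mem_eigenspace_iff.1 (this.ge (Submodule.mem_top (x := v)))
  have hω := Complex.isPrimitiveRoot_exp p hp.ne_zero
  have hn1 := near h7
  generalize Complex.exp (2 * Real.pi * Complex.I / p) = ω at hω hn1
  obtain ⟨k, -, hk⟩ := (prim ρ hp hzp hα h0 hv).eq_pow_of_pow_eq_one hω.pow_eq_one
  have hv' : ρ (z ^ k) v = ω • v := by
    rw [map_pow, HasEigenvector.pow_apply ⟨mem_eigenspace_iff.2 hv, h0⟩, hk]
  have hxp : (z ^ k) ^ p = 1 := by rw [← pow_mul, mul_comm, pow_mul, hzp, one_pow]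
  have hxc : ∀ g ∈ P, g * z ^ k = z ^ k * g := fun g hg => (show Commute g z from hzc g hg).pow_right k
  have hx := pow_mem hz k
  generalize z ^ k = x at *
  have hd : ∀ β, IsPrimitiveRoot β p → ∀ w ≠ 0, ρ x w = β • w → p ≤ finrank ℂ (eigenspace (ρ x) β) := fun β hβ w hw e =>
    Nat.le_of_dvd (finrank_pos_iff.2 ⟨⟨⟨w, mem_eigenspace_iff.2 e⟩, 0, fun e => hw (congrArg Subtype.val e)⟩⟩)
      (dvd_dim ρ (P := P) (fun g hg u hu => by
        rw [mem_eigenspace_iff] at hu ⊢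
        rw [← End.mul_apply, ← map_mul, ← hxc g hg, map_mul, End.mul_apply, hu, map_smul]) hx hβ
        fun u hu => mem_eigenspace_iff.1 hu)
  have he : ∀ β, ∀ w ≠ 0, ρ x w = β • w → β = 1 ∨ β = ω := fun β w hw e => by
    by_contra! h
    have h1 := Submodule.finrank_add_finrank_le_of_disjoint
      ((eigenspaces_iSupIndep (ρ x)).pairwiseDisjoint h.2)
    have h2 := hd β (prim ρ hp hxp h.1 hw e) w hw e
    have h3 := hd ω hω v h0 hv'
    simp only [finrank_fin_fun] at h1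
    omega
  refine ⟨x, hx, ω, hω, ⟨v, h0, hv'⟩, fun g => hi (LinearMap.ext fun w => ?_)⟩
  have : w ∈ LinearMap.eqLocus (ρ (x * (g⁻¹ * x * g))) (ρ (g⁻¹ * x * g * x)) := by
    refine ((span_eig ρ x).ge.trans (iSup_le fun β u hu => ?_)) Submodule.mem_top
    rw [mem_eigenspace_iff] at hu
    by_cases u0 : u = 0
    · rw [u0]; exact zero_mem _
    rw [LinearMap.mem_eqLocus, map_mul, map_mul _ _ x, End.mul_apply, End.mul_apply, hu, map_smul]
    refine stab' ρ ?_ (fun γ u' hu' e => ?_) g hu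
    · rcases he β u u0 hu with rfl | rfl
      · simp
      · exact hω.norm'_eq_one hp.ne_zero
    · rcases he β u u0 hu with rfl | rfl <;> rcases he γ u' hu' e with rfl | rfl
      · simp
      · exact hn1
      · rwa [norm_sub_rev]
      · simp
  exact this

variable {A : Subgroup G} [A.Normal]

/-- a weight space -/
noncomputable def Ws (μ : Ch ℂ A) : Submodule ℂ (Fin n → ℂ) := ⨅ a : A, eigenspace (ρ a) (μ.h a)

theorem mem_Ws {μ : Ch ℂ A} {v : Fin n → ℂ} : v ∈ Ws ρ μ ↔ ∀ a : A, ρ a v = (μ.h a : ℂ) • v := by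
  simp [Ws]

theorem Ws_smul (g : G) {μ : Ch ℂ A} {v : Fin n → ℂ} (hv : v ∈ Ws ρ μ) : ρ g v ∈ Ws ρ (g • μ) :=
  (mem_Ws ρ).2 fun a => by
    rw [smul_h, ← map_smul, ← (mem_Ws ρ).1 hv, ← End.mul_apply, ← End.mul_apply, ← map_mul, ← map_mul]
    simp

theorem Ws_le (g : G) (μ : Ch ℂ A) : finrank ℂ (Ws ρ μ) ≤ finrank ℂ (Ws ρ (g • μ)) :=
  LinearMap.finrank_le_finrank_of_injective (f := (ρ g).restrict fun _ hv => Ws_smul ρ g hv)
    ((injective_iff_map_eq_zero _).2 fun v e => Subtype.ext (tinj ρ g (congrArg Subtype.val e)))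

theorem Ws_indep : iSupIndep fun μ : Ch ℂ A => Ws ρ μ := fun μ => by
  letI := Fintype.ofFinite A
  have h1 : ∀ ν : Ch ℂ A, ∀ v ∈ Ws ρ ν, pr ρ ν v = (Nat.card A : ℂ) • v := fun ν v hv => by
    simp [pr, LinearMap.sum_apply, (mem_Ws ρ).1 hv, smul_smul, Nat.cast_smul_eq_nsmul]
  have h0 : (Nat.card A : ℂ) ≠ 0 := Nat.cast_ne_zero.2 Nat.card_pos.ne'
  have h2 : ⨆ ν, ⨆ (_ : ν ≠ μ), Ws ρ ν ≤ LinearMap.ker (pr ρ μ) := iSup₂_le fun ν hν v hv => by
    have := pr_pr ρ hν.symm v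
    rwa [h1 ν v hv, map_smul, smul_eq_zero_iff_right h0] at this
  refine Submodule.disjoint_def.2 fun v hv hv' => (smul_eq_zero_iff_right h0).1 ((h1 μ v hv).symm.trans (h2 hv'))

theorem orb_bd (μ : Ch ℂ A) : Nat.card (orbit G μ) * finrank ℂ (Ws ρ μ) ≤ n := by
  haveI : Finite (orbit G μ) := Set.finite_range _
  letI := Fintype.ofFinite (orbit G μ)
  have h1 := sum_le ((Ws_indep ρ).comp (f := fun ν : orbit G μ => ν.1) Subtype.val_injective)
  rw [finrank_fin_fun] at h1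
  refine le_trans ?_ h1
  rw [Nat.card_eq_fintype_card, ← smul_eq_mul, ← Finset.card_univ]
  exact Finset.card_nsmul_le_sum _ _ _ fun ⟨_, g, rfl⟩ _ => Ws_le ρ g μ

theorem orb_top [hρ : ρ.IsIrreducible] {μ : Ch ℂ A} (h : Ws ρ μ ≠ ⊥) : ⨆ g : G, Ws ρ (g • μ) = ⊤ := by
  let U : Subrepresentation ρ := ⟨⨆ g : G, Ws ρ (g • μ), fun g v hv =>
    (iSup_le fun g' w hw => Submodule.mem_iSup_of_mem (g * g') (mul_smul g g' μ ▸ Ws_smul ρ g hw) :
      ⨆ g : G, Ws ρ (g • μ) ≤ (⨆ g : G, Ws ρ (g • μ)).comap (ρ g)) hv⟩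
  rcases eq_bot_or_eq_top U with e | e
  · refine (h (le_bot_iff.1 (le_trans ?_ (congrArg Subrepresentation.toSubmodule e).le))).elim
    exact le_iSup_of_le (f := fun g : G => Ws ρ (g • μ)) 1 (by rw [one_smul])
  · exact congrArg Subrepresentation.toSubmodule e

theorem aux [hρ : ρ.IsIrreducible] (hi : Function.Injective ρ) {p : ℕ} (hp : p.Prime) (hn : n < 2 * p)
    (hnp : n ≠ p) {P : Subgroup G} (hP : IsPGroup p P) {x : G} (hx : x ∈ ⁅P, P⁆) {ω : ℂ} (hω : IsPrimitiveRoot ω p)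
    {μ : Ch ℂ A} (hμ : Ws ρ μ ≠ ⊥) (hl : ∀ u ∈ Ws ρ μ, ρ x u = ω • u) :
    ∃ C : Subgroup G, C.Normal ∧ C ≤ centralizer (C : Set G) ∧ ¬ p ^ 2 ∣ C.index := by
  haveI := Fact.mk hp
  have hm : 0 < finrank ℂ (Ws ρ μ) := Nat.pos_of_ne_zero (mt Submodule.finrank_eq_zero.1 hμ)
  have hb := orb_bd ρ μ
  have ht := orb_top ρ hμ
  haveI : Finite (orbit G μ) := Set.finite_range _
  have h1 : ¬ P ≤ stabilizer G μ := fun h => by
    have h2 := dvd_dim ρ (U := Ws ρ μ) (fun g hg u hu => by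
      have := Ws_smul ρ g hu
      rwa [mem_stabilizer_iff.1 (h hg)] at this) hx hω hl
    have h3 : Nat.card (orbit G μ) ≤ 1 := Nat.le_of_lt_succ (Nat.lt_of_mul_lt_mul_right
      (((Nat.mul_le_mul_left _ (Nat.le_of_dvd hm h2)).trans hb).trans_lt hn))
    haveI := Finite.card_le_one_iff_subsingleton.1 h3
    have h4 : ∀ g : G, g • μ = μ := fun g => congrArg Subtype.val
      (Subsingleton.elim (⟨_, mem_orbit μ g⟩ : orbit G μ) ⟨_, mem_orbit_self μ⟩)
    simp only [h4, iSup_const] at ht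
    rw [ht, finrank_top, finrank_fin_fun] at h2 hm
    obtain ⟨k, rfl⟩ := h2
    have h5 : k < 2 := Nat.lt_of_mul_lt_mul_left (a := p) (by rwa [mul_comm p 2])
    have h6 : k ≠ 0 := by rintro rfl; simp at hm
    exact hnp (by rw [show k = 1 by omega, mul_one])
  have h2 : p ≤ Nat.card (orbit G μ) := by
    obtain ⟨k, hk⟩ := hP.index (stabilizer P μ)
    have h3 : k ≠ 0 := by
      rintro rfl
      exact h1 fun g hg => (index_eq_one.1 hk).ge (mem_top (⟨g, hg⟩ : P))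
    rw [index_stabilizer] at hk
    exact ((Nat.le_self_pow h3 p).trans hk.ge).trans (Set.ncard_le_ncard (orbit_subgroup_subset P μ) (Set.toFinite _))
  have h3 : finrank ℂ (Ws ρ μ) ≤ 1 := Nat.le_of_lt_succ (Nat.lt_of_mul_lt_mul_left (a := p)
    (((Nat.mul_le_mul_right _ h2).trans hb).trans_lt (mul_comm 2 p ▸ hn)))
  refine ⟨(toPermHom G (orbit G μ)).ker, inferInstance, fun c hc d hd => hi (LinearMap.ext fun u => ?_), fun h => ?_⟩
  · have h4 : ∀ c ∈ (toPermHom G (orbit G μ)).ker, ∀ g : G, ∀ u ∈ Ws ρ (g • μ), ∃ a : ℂ, ρ c u = a • u := by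
      intro c hc g u hu
      by_cases u0 : u = 0
      · exact ⟨0, by simp [u0]⟩
      have h5 : c • g • μ = g • μ := congrArg Subtype.val (DFunLike.congr_fun hc (⟨_, mem_orbit μ g⟩ : orbit G μ))
      have h6 := Ws_le ρ g⁻¹ (g • μ)
      rw [inv_smul_smul] at h6
      obtain ⟨a, ha⟩ := (finrank_eq_one_iff_of_nonzero' (⟨u, hu⟩ : Ws ρ (g • μ)) fun e => u0 (congrArg Subtype.val e)).1
        (le_antisymm (h6.trans h3) (hm.trans_le (Ws_le ρ g μ))) ⟨ρ c u, h5 ▸ Ws_smul ρ c hu⟩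
      exact ⟨a, (congrArg Subtype.val ha).symm⟩
    have : u ∈ LinearMap.eqLocus (ρ (d * c)) (ρ (c * d)) := by
      refine (ht.ge.trans (iSup_le fun g u hu => ?_)) Submodule.mem_top
      obtain ⟨a, ha⟩ := h4 c hc g u hu
      obtain ⟨b, hb⟩ := h4 d hd g u hu
      rw [LinearMap.mem_eqLocus, map_mul, map_mul, End.mul_apply, End.mul_apply, ha, hb, map_smul, map_smul, ha, hb,
        smul_comm]
    exact this
  · rw [index_ker] at h
    have h4 := h.trans (card_subgroup_dvd_card _)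
    have h5 : Nat.card (orbit G μ) < 2 * p := ((Nat.le_mul_of_pos_right _ hm).trans hb).trans_lt hn
    rw [Nat.card_perm, hp.pow_dvd_factorial_iff (b := 2) (Nat.log_lt_of_lt_pow' two_ne_zero (h5.trans_le (pow_two p ▸ Nat.mul_le_mul_right p hp.two_le)))] at h4
    simp only [Nat.Ico_succ_singleton, Finset.sum_singleton, pow_one] at h4
    have := (Nat.le_div_iff_mul_le hp.pos).1 h4
    omega

theorem main [hρ : ρ.IsIrreducible] (hi : Function.Injective ρ) {p : ℕ} (hp : p.Prime) (h7 : 7 ≤ p) (hn : n < 2 * p)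
    (hnp : n ≠ p) {P : Subgroup G} (hP : IsPGroup p P) (hna : ⁅P, P⁆ ≠ ⊥) :
    ∃ C : Subgroup G, C.Normal ∧ C ≤ centralizer (C : Set G) ∧ ¬ p ^ 2 ∣ C.index := by
  haveI := Fact.mk hp
  obtain ⟨x, hx, ω, hω, ⟨v, h0, hv⟩, hc⟩ := exists_x ρ hi hp h7 hn hP hna
  let A := normalClosure ({x} : Set G)
  have hA : A ≤ centralizer (A : Set G) := by
    have h1 : ∀ y ∈ Group.conjugatesOfSet ({x} : Set G), ∀ z ∈ Group.conjugatesOfSet ({x} : Set G), z * y = y * z := by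
      intro y hy z hz
      obtain ⟨a, ha, hy'⟩ := Group.mem_conjugatesOfSet_iff.1 hy
      obtain ⟨b, hb, hz'⟩ := Group.mem_conjugatesOfSet_iff.1 hz
      obtain ⟨g, rfl⟩ := isConj_iff.1 hy'
      obtain ⟨k, rfl⟩ := isConj_iff.1 hz'
      rw [Set.mem_singleton_iff.1 ha, Set.mem_singleton_iff.1 hb]
      calc _ = k * (x * ((g⁻¹ * k)⁻¹⁻¹⁻¹⁻¹⁻¹⁻¹⁻¹ * x * (g⁻¹ * k))) * k⁻¹ := by group
        _ = _ := by simp only [inv_inv]; rw [hc]; group
    exact (closure_le _).2 fun y hy => (centralizer_closure _).ge (h1 y hy)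
  obtain ⟨l, ⟨w, w0, hw⟩, hl⟩ := exists_wt (fun a b : A => Subtype.ext (hA b.2 a a.2)) (ρ.comp A.subtype)
    (x := ⟨x, subset_normalClosure rfl⟩) h0 hv
  exact aux ρ hi hp hn hnp hP hx hω (A := A) (μ := l.toHomUnits) ((Submodule.ne_bot_iff _).2 ⟨w, (mem_Ws ρ).2 hw, w0⟩)
    fun u hu => hl ▸ (mem_Ws ρ (A := A)).1 hu ⟨x, subset_normalClosure rfl⟩

end CA.H8Bli
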